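import Cfsg.Prelude.Def_GeometricClasses
import Cfsg.Agent.H905.SLBasic

/-!
Coordinates adapted to a decomposition `Geo.IsMDecomposition m D`, the elements of its stabiliser in
these coordinates, and dilatransvections `x ↦ x + f x • v` as elements of `GL`.
-/

set_option autoImplicit false
set_option linter.unusedSectionVars false

namespace Cfsg.Agent.H872

open Matrix Cfsg

variable {ι : Type} [Fintype ι] [DecidableEq ι] {F : Type*} [Field F]

/-! ### Dilatransvections -/

/-- The element `x ↦ x + f x • v` of `GL`. -/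
noncomputable def dil (f : (ι → F) →ₗ[F] F) (v : ι → F) (h : 1 + f v ≠ 0) : GL ι F :=
  H905.glOf (LinearEquiv.dilatransvection (f := f) (v := v) (isUnit_iff_ne_zero.2 h))

theorem dil_mulVec (f : (ι → F) →ₗ[F] F) (v : ι → F) (h : 1 + f v ≠ 0) (x : ι → F) :
    (dil f v h : Matrix ι ι F) *ᵥ x = x + f x • v := by
  rw [dil, H905.glOf_mulVec, LinearEquiv.dilatransvection.apply]

theorem det_dil (f : (ι → F) →ₗ[F] F) (v : ι → F) (h : 1 + f v ≠ 0) :
    (dil f v h : Matrix ι ι F).det = 1 + f v := by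
  rw [dil, H905.glOf_det, LinearEquiv.dilatransvection.coe_toLinearMap,
    LinearMap.transvection.det]

/-! ### Coordinates of a decomposition -/

/-- Coordinates adapted to a decomposition: `Ψ` carries `D i` onto the vectors supported at `i`. -/
theorem exists_coord {t m : ℕ} {D : Fin t → Submodule F (ι → F)} (hD : Geo.IsMDecomposition m D) :
    ∃ Ψ : (ι → F) ≃ₗ[F] (Fin t → Fin m → F),
      ∀ i v, v ∈ D i ↔ ∀ j, j ≠ i → Ψ v j = 0 := by
  classical
  have hint : DirectSum.IsInternal D :=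
    DirectSum.isInternal_submodule_of_iSupIndep_of_iSup_eq_top hD.indep hD.iSup_eq_top
  let E1 : (DirectSum (Fin t) fun i => D i) ≃ₗ[F] (ι → F) :=
    LinearEquiv.ofBijective (DirectSum.coeLinearMap D) hint
  let E2 : (DirectSum (Fin t) fun i => D i) ≃ₗ[F] (∀ i : Fin t, D i) :=
    DirectSum.linearEquivFunOnFintype F (Fin t) fun i => D i
  have hfin : ∀ i, Nonempty (D i ≃ₗ[F] (Fin m → F)) := by
    intro i
    refine ⟨LinearEquiv.ofFinrankEq _ _ ?_⟩
    rw [hD.finrank_eq i, Module.finrank_fintype_fun_eq_card, Fintype.card_fin]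
  let c : ∀ i, D i ≃ₗ[F] (Fin m → F) := fun i => (hfin i).some
  let E3 : (∀ i : Fin t, D i) ≃ₗ[F] (Fin t → Fin m → F) := LinearEquiv.piCongrRight c
  refine ⟨(E1.symm ≪≫ₗ E2) ≪≫ₗ E3, fun i v => ?_⟩
  have h3 : ∀ w j, ((E1.symm ≪≫ₗ E2) ≪≫ₗ E3) w j = c j (E2 (E1.symm w) j) := fun w j => rfl
  constructor
  · intro hv j hj
    have h1 : E1 (DirectSum.lof F (Fin t) (fun i => D i) i ⟨v, hv⟩) = v := by
      change DirectSum.coeLinearMap D _ = v
      exact DirectSum.coeLinearMap_lof D i ⟨v, hv⟩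
    have h2 : E1.symm v = DirectSum.lof F (Fin t) (fun i => D i) i ⟨v, hv⟩ := by
      rw [LinearEquiv.symm_apply_eq, h1]
    rw [h3, h2]
    have h4 : E2 (DirectSum.lof F (Fin t) (fun i => D i) i ⟨v, hv⟩) j = 0 := by
      change (DirectSum.lof F (Fin t) (fun i => D i) i ⟨v, hv⟩) j = 0
      rw [DirectSum.lof_eq_of, DirectSum.of_eq_of_ne _ _ _ hj]
    rw [h4, map_zero]
  · intro h
    have h4 : ∀ j, j ≠ i → E2 (E1.symm v) j = 0 := by
      intro j hj
      have := h j hj
      rw [h3] at this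
      exact (c j).map_eq_zero_iff.1 this
    have h5 : E1.symm v = DirectSum.lof F (Fin t) (fun i => D i) i (E2 (E1.symm v) i) := by
      apply E2.injective
      funext j
      by_cases hj : j = i
      · subst hj
        change _ = (DirectSum.lof F (Fin t) (fun i => D i) j (E2 (E1.symm v) j)) j
        rw [DirectSum.lof_eq_of, DirectSum.of_eq_same]
      · rw [h4 j hj]
        change _ = (DirectSum.lof F (Fin t) (fun i => D i) i (E2 (E1.symm v) i)) j
        rw [DirectSum.lof_eq_of, DirectSum.of_eq_of_ne _ _ _ hj]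
    have h6 : v = E1 (E1.symm v) := (E1.apply_symm_apply v).symm
    rw [h6, h5]
    have h7 : E1 (DirectSum.lof F (Fin t) (fun i => D i) i (E2 (E1.symm v) i)) =
        ((E2 (E1.symm v) i : D i) : ι → F) := by
      change DirectSum.coeLinearMap D _ = _
      exact DirectSum.coeLinearMap_lof D i _
    rw [h7]
    exact (E2 (E1.symm v) i).2

/-- Elements of the stabiliser are monomial in adapted coordinates. -/
theorem coord_of_mem {t m : ℕ} {D : Fin t → Submodule F (ι → F)}
    {Ψ : (ι → F) ≃ₗ[F] (Fin t → Fin m → F)}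
    (hΨ : ∀ i v, v ∈ D i ↔ ∀ j, j ≠ i → Ψ v j = 0) {g : GL ι F}
    (hg : g ∈ Geo.decompositionStabilizer D) :
    ∃ (σ : Equiv.Perm (Fin t)) (A : Fin t → ((Fin m → F) →ₗ[F] (Fin m → F))),
      (∀ i, Function.Injective (A i)) ∧
      ∀ i v, Ψ ((g : Matrix ι ι F) *ᵥ v) (σ i) = A i (Ψ v i) := by
  classical
  obtain ⟨σ, hσ⟩ := hg
  let s : ∀ i : Fin t, (Fin m → F) →ₗ[F] (ι → F) := fun i =>
    Ψ.symm.toLinearMap ∘ₗ LinearMap.single F (fun _ : Fin t => (Fin m → F)) i
  have hs : ∀ i z, Ψ (s i z) = Pi.single i z := by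
    intro i z
    change Ψ (Ψ.symm (Pi.single i z)) = _
    rw [LinearEquiv.apply_symm_apply]
  have hsD : ∀ i z, s i z ∈ D i := by
    intro i z
    rw [hΨ]
    intro j hj
    rw [hs, Pi.single_eq_of_ne hj]
  have hgD : ∀ i v, v ∈ D i → (g : Matrix ι ι F) *ᵥ v ∈ D (σ i) := by
    intro i v hv
    rw [← hσ i]
    exact ⟨v, hv, by rw [Matrix.toLin'_apply]⟩
  let A : Fin t → ((Fin m → F) →ₗ[F] (Fin m → F)) := fun i =>
    LinearMap.proj (σ i) ∘ₗ Ψ.toLinearMap ∘ₗ Matrix.toLin' (g : Matrix ι ι F) ∘ₗ s i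
  have hA : ∀ i z, A i z = Ψ ((g : Matrix ι ι F) *ᵥ (s i z)) (σ i) := fun i z => rfl
  refine ⟨σ, A, fun i => ?_, fun i v => ?_⟩
  · rw [← LinearMap.ker_eq_bot, LinearMap.ker_eq_bot']
    intro z hz
    rw [hA] at hz
    have h1 : Ψ ((g : Matrix ι ι F) *ᵥ (s i z)) = 0 := by
      funext j
      by_cases hj : j = σ i
      · rw [hj, hz]; rfl
      · exact (hΨ (σ i) _).1 (hgD i _ (hsD i z)) j hj
    have h2 : (g : Matrix ι ι F) *ᵥ (s i z) = 0 := Ψ.map_eq_zero_iff.1 h1
    have h3 : s i z = 0 := by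
      have h4 : ((g⁻¹ : GL ι F) : Matrix ι ι F) *ᵥ ((g : Matrix ι ι F) *ᵥ (s i z)) = 0 := by
        rw [h2, mulVec_zero]
      rwa [mulVec_mulVec, ← Units.val_mul, inv_mul_cancel, Units.val_one, one_mulVec] at h4
    have h5 := hs i z
    rw [h3, map_zero] at h5
    have h6 := congrFun h5 i
    rw [Pi.single_eq_same] at h6
    exact h6.symm
  · have h1 : v = ∑ j, s j (Ψ v j) := by
      apply Ψ.injective
      rw [map_sum]
      funext k
      rw [Finset.sum_apply]
      rw [Finset.sum_eq_single k]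
      · rw [hs, Pi.single_eq_same]
      · intro j _ hj
        rw [hs, Pi.single_eq_of_ne (Ne.symm hj)]
      · intro h; exact absurd (Finset.mem_univ k) h
    have h2 : Ψ ((g : Matrix ι ι F) *ᵥ v) = ∑ j, Ψ ((g : Matrix ι ι F) *ᵥ s j (Ψ v j)) := by
      conv_lhs => rw [h1]
      rw [← Matrix.toLin'_apply, map_sum, map_sum]
      simp only [Matrix.toLin'_apply]
    rw [h2, Finset.sum_apply, Finset.sum_eq_single i]
    · rw [hA]
    · intro j _ hj
      refine (hΨ (σ j) _).1 (hgD j _ (hsD j _)) (σ i) ?_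
      exact fun h => hj (σ.injective h).symm
    · intro h; exact absurd (Finset.mem_univ i) h

end Cfsg.Agent.H872
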