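import Cfsg.Agent.H872.Frame
import Cfsg.Agent.H905.SLProper3

/-!
Stabilisers of frames over small fields preserve forms:
`m = 1, q = 3` and `m = 2, q = 2`: a quadratic form; `m = 1, q = 4`: a hermitian form;
`m = 1, q = 2`: the sum of the basis vectors.
-/

set_option autoImplicit false
set_option linter.unusedSectionVars false

namespace Cfsg.Agent.H872

open Matrix Cfsg

variable {ι : Type} [Fintype ι] [DecidableEq ι] {F : Type*} [Field F]

/-- Sum of squares-like form attached to `N`. -/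
def frameForm {t m : ℕ} (N : (Fin m → F) → F) (Ψ : (ι → F) ≃ₗ[F] (Fin t → Fin m → F)) (v : ι → F) : F :=
  ∑ i, N (Ψ v i)

theorem polar_frameForm {t m : ℕ} {N : (Fin m → F) → F}
    {B : (Fin m → F) →ₗ[F] (Fin m → F) →ₗ[F] F}
    (hB : ∀ z w, N (z + w) = N z + N w + B z w)
    (Ψ : (ι → F) ≃ₗ[F] (Fin t → Fin m → F)) (v w : ι → F) :
    QuadraticMap.polar (frameForm N Ψ) v w = ∑ i, B (Ψ v i) (Ψ w i) := by
  unfold QuadraticMap.polar frameForm
  rw [← Finset.sum_sub_distrib, ← Finset.sum_sub_distrib]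
  refine Finset.sum_congr rfl fun i _ => ?_
  rw [map_add, Pi.add_apply, hB]
  ring

theorem isNondegenerateQuadraticForm_frameForm {t m : ℕ} {N : (Fin m → F) → F}
    {B : (Fin m → F) →ₗ[F] (Fin m → F) →ₗ[F] F}
    (hN : ∀ (c : F) z, N (c • z) = c ^ 2 * N z)
    (hB : ∀ z w, N (z + w) = N z + N w + B z w)
    (hsymm : ∀ z w, B z w = B w z)
    (hnd : ∀ z, z ≠ 0 → ∃ w, B z w ≠ 0)
    (Ψ : (ι → F) ≃ₗ[F] (Fin t → Fin m → F)) :
    Geo.IsNondegenerateQuadraticForm (frameForm N Ψ) where
  smul := by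
    intro c v
    unfold frameForm
    rw [Finset.mul_sum]
    refine Finset.sum_congr rfl fun i _ => ?_
    rw [map_smul, Pi.smul_apply, hN]
  polar_bilinear := by
    constructor
    · intro x y v
      simp only [polar_frameForm hB, map_add, Pi.add_apply, LinearMap.add_apply, Finset.sum_add_distrib]
    · intro c x v
      simp only [polar_frameForm hB, map_smul, Pi.smul_apply, LinearMap.smul_apply, smul_eq_mul, Finset.mul_sum]
    · intro v x y
      simp only [polar_frameForm hB, map_add, Pi.add_apply, Finset.sum_add_distrib]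
    · intro c v x
      simp only [polar_frameForm hB, map_smul, Pi.smul_apply, smul_eq_mul, Finset.mul_sum]
  nondegenerate := by
    intro v hv
    have h1 : ∃ i, Ψ v i ≠ 0 := by
      by_contra hcon
      push Not at hcon
      exact hv (Ψ.map_eq_zero_iff.1 (funext hcon))
    obtain ⟨i, hi⟩ := h1
    obtain ⟨w, hw⟩ := hnd _ hi
    have h2 : ∑ j, B (Ψ v j) (Ψ (Ψ.symm (Pi.single i w)) j) = B (Ψ v i) w := by
      rw [LinearEquiv.apply_symm_apply, Finset.sum_eq_single i]
      · rw [Pi.single_eq_same]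
      · intro j _ hj
        rw [Pi.single_eq_of_ne hj, map_zero]
      · intro h; exact absurd (Finset.mem_univ i) h
    constructor
    · refine ⟨Ψ.symm (Pi.single i w), ?_⟩
      rw [polar_frameForm hB]
      simp only [fun j => hsymm (Ψ (Ψ.symm (Pi.single i w)) j) (Ψ v j)]
      rwa [h2]
    · refine ⟨Ψ.symm (Pi.single i w), ?_⟩
      rwa [polar_frameForm hB, h2]

theorem frameForm_invariant {t m : ℕ} {D : Fin t → Submodule F (ι → F)}
    {Ψ : (ι → F) ≃ₗ[F] (Fin t → Fin m → F)}
    (hΨ : ∀ i v, v ∈ D i ↔ ∀ j, j ≠ i → Ψ v j = 0) {N : (Fin m → F) → F}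
    (hN1 : ∀ z, z ≠ 0 → N z = 1) {g : GL ι F}
    (hg : g ∈ Geo.decompositionStabilizer D) (v : ι → F) :
    frameForm N Ψ ((g : Matrix ι ι F) *ᵥ v) = frameForm N Ψ v := by
  obtain ⟨σ, A, hA, hgA⟩ := coord_of_mem hΨ hg
  unfold frameForm
  rw [← Equiv.sum_comp σ]
  refine Finset.sum_congr rfl fun i _ => ?_
  rw [hgA]
  by_cases h : Ψ v i = 0
  · rw [h, map_zero]
  · rw [hN1 _ h, hN1]
    intro h1
    exact h (hA i (by rw [h1, map_zero]))

/-- The reflection in a vector with `Q v = 1`. -/
theorem exists_reflection {Q : (ι → F) → F} (hQ : Geo.IsNondegenerateQuadraticForm Q) {v : ι → F}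
    (hv : Q v = 1) : ∃ g : GL ι F, (g : Matrix ι ι F).det = -1 ∧
      (∀ x, (g : Matrix ι ι F) *ᵥ x = x - QuadraticMap.polar Q x v • v) ∧
      ∀ x, Q ((g : Matrix ι ι F) *ᵥ x) = Q x := by
  let f : (ι → F) →ₗ[F] F :=
    { toFun := fun x => - QuadraticMap.polar Q x v
      map_add' := fun x y => by rw [hQ.polar_bilinear.add_left]; ring
      map_smul' := fun c x => by
        rw [hQ.polar_bilinear.smul_left, RingHom.id_apply, smul_eq_mul]; ring }
  have hf : ∀ x, f x = - QuadraticMap.polar Q x v := fun x => rfl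
  have hvv : QuadraticMap.polar Q v v = 2 := by
    have h1 : Q (v + v) = 4 := by
      have : v + v = (2 : F) • v := by rw [two_smul]
      rw [this, hQ.smul, hv]; norm_num
    unfold QuadraticMap.polar
    rw [h1, hv]; norm_num
  have h1 : 1 + f v = -1 := by rw [hf, hvv]; ring
  have h2 : 1 + f v ≠ 0 := by rw [h1]; exact neg_ne_zero.2 one_ne_zero
  refine ⟨dil f v h2, ?_, ?_, ?_⟩
  · rw [det_dil, h1]
  · intro x
    rw [dil_mulVec, hf, neg_smul, sub_eq_add_neg]
  · intro x
    rw [dil_mulVec]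
    have h3 : Q (x + f x • v) = Q x + Q (f x • v) + QuadraticMap.polar Q x (f x • v) := by
      unfold QuadraticMap.polar; ring
    rw [h3, hQ.smul, hQ.polar_bilinear.smul_right, hv, hf]
    ring

/-- Elements of the stabiliser keep the number of non-zero components; here: one component. -/
theorem not_mem_of_two {t m : ℕ} {D : Fin t → Submodule F (ι → F)}
    {Ψ : (ι → F) ≃ₗ[F] (Fin t → Fin m → F)}
    (hΨ : ∀ i v, v ∈ D i ↔ ∀ j, j ≠ i → Ψ v j = 0) {g : GL ι F} {i j k : Fin t} (hjk : j ≠ k)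
    {x : ι → F} (hx : x ∈ D i) (hj : Ψ ((g : Matrix ι ι F) *ᵥ x) j ≠ 0)
    (hk : Ψ ((g : Matrix ι ι F) *ᵥ x) k ≠ 0) : g ∉ Geo.decompositionStabilizer D := by
  intro hg
  obtain ⟨σ, A, hA, hgA⟩ := coord_of_mem hΨ hg
  have h : ∀ l, Ψ ((g : Matrix ι ι F) *ᵥ x) l ≠ 0 → l = σ i := by
    intro l hl
    obtain ⟨l', rfl⟩ := σ.surjective l
    rw [hgA] at hl
    by_contra hne
    have h1 : l' ≠ i := fun h => hne (by rw [h])
    rw [(hΨ i x).1 hx l' h1, map_zero] at hl
    exact hl rfl
  exact hjk ((h j hj).trans (h k hk).symm)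

/-- Strict overgroup for the quadratic cases. -/
theorem exists_between_quad {t m : ℕ} {D : Fin t → Submodule F (ι → F)}
    (hD : Geo.IsMDecomposition m D) (hι : 3 ≤ Fintype.card ι) {N : (Fin m → F) → F}
    {B : (Fin m → F) →ₗ[F] (Fin m → F) →ₗ[F] F}
    (hN : ∀ (c : F) z, N (c • z) = c ^ 2 * N z)
    (hB : ∀ z w, N (z + w) = N z + N w + B z w)
    (hsymm : ∀ z w, B z w = B w z)
    (hnd : ∀ z, z ≠ 0 → ∃ w, B z w ≠ 0) (hN1 : ∀ z, z ≠ 0 → N z = 1)
    {k : ℕ} (hk : 3 ≤ k) (hkt : k < t) (hkF : (k : F) = 1) :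
    ∃ K : Subgroup (GL ι F), Geo.decompositionStabilizer D ⊓ Geo.specialLinear ι F < K ∧
      K < Geo.specialLinear ι F := by
  classical
  obtain ⟨Ψ, hΨ⟩ := exists_coord hD
  have hN0 : N 0 = 0 := by
    have := hN 0 0
    rw [smul_zero] at this
    rw [this]; ring
  have hQ := isNondegenerateQuadraticForm_frameForm hN hB hsymm hnd Ψ
  set Q : (ι → F) → F := frameForm N Ψ with hQdef
  refine ⟨Geo.quadSimilarityGroup Q ⊓ Geo.specialLinear ι F, ?_, ?_⟩
  · refine lt_of_le_of_ne (inf_le_inf_right _ ?_) ?_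
    · intro g hg
      exact ⟨1, fun v => by rw [Units.val_one, one_mul]; exact frameForm_invariant hΨ hN1 hg v⟩
    · intro heq
      have hpos := hD.pos
      let z0 : Fin m → F := Pi.single ⟨0, hpos⟩ 1
      have hz0 : z0 ≠ 0 := by
        intro h
        have := congrFun h ⟨0, hpos⟩
        simp [z0] at this
      obtain ⟨w0, hw0⟩ := hnd z0 hz0
      have hw00 : w0 ≠ 0 := by rintro rfl; exact hw0 (map_zero _)
      -- the vector with k non-zero components
      let v : ι → F := Ψ.symm fun i => if (i : ℕ) < k then z0 else 0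
      have hv : ∀ i, Ψ v i = if (i : ℕ) < k then z0 else 0 := fun i => by
        rw [LinearEquiv.apply_symm_apply]
      let ik : Fin t := ⟨k, hkt⟩
      let v' : ι → F := Ψ.symm (Pi.single ik z0)
      have hv' : Ψ v' = Pi.single ik z0 := LinearEquiv.apply_symm_apply _ _
      have hQv : Q v = 1 := by
        rw [hQdef, frameForm]
        have h1 : ∀ i, N (Ψ v i) = if (i : ℕ) < k then (1 : F) else 0 := by
          intro i
          rw [hv]
          split_ifs
          · exact hN1 _ hz0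
          · exact hN0
        simp only [h1]
        rw [Finset.sum_ite, Finset.sum_const_zero, add_zero, Finset.sum_const, nsmul_eq_mul, mul_one]
        have h2 : (Finset.univ.filter fun i : Fin t => (i : ℕ) < k).card = k := by
          rw [Fin.card_filter_val_lt]; omega
        rw [h2, hkF]
      have hQv' : Q v' = 1 := by
        rw [hQdef, frameForm, Finset.sum_eq_single ik]
        · rw [hv', Pi.single_eq_same, hN1 _ hz0]
        · intro j _ hj
          rw [hv', Pi.single_eq_of_ne hj, hN0]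
        · intro h; exact absurd (Finset.mem_univ _) h
      obtain ⟨r1, hr1, hr1x, hr1Q⟩ := exists_reflection hQ hQv
      obtain ⟨r2, hr2, hr2x, hr2Q⟩ := exists_reflection hQ hQv'
      have hmem : r1 * r2 ∈ Geo.quadSimilarityGroup Q ⊓ Geo.specialLinear ι F := by
        refine ⟨⟨1, fun x => ?_⟩, ?_⟩
        · rw [Units.val_mul, ← mulVec_mulVec, hr1Q, hr2Q, Units.val_one, one_mul]
        · exact (H905.mem_sl_iff _).2 (by rw [Units.val_mul, det_mul, hr1, hr2]; ring)
      rw [← heq] at hmem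
      let i0 : Fin t := ⟨0, by omega⟩
      let i1 : Fin t := ⟨1, by omega⟩
      let i2 : Fin t := ⟨2, by omega⟩
      let x : ι → F := Ψ.symm (Pi.single i0 w0)
      have hx : Ψ x = Pi.single i0 w0 := LinearEquiv.apply_symm_apply _ _
      have hxD : x ∈ D i0 := by
        rw [hΨ]
        intro j hj
        rw [hx, Pi.single_eq_of_ne hj]
      have hpx : QuadraticMap.polar Q x v = B w0 z0 := by
        rw [hQdef, polar_frameForm hB, Finset.sum_eq_single i0]
        · rw [hx, hv, Pi.single_eq_same, if_pos (by simp [i0]; omega)]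
        · intro j _ hj
          rw [hx, Pi.single_eq_of_ne hj, map_zero, LinearMap.zero_apply]
        · intro h; exact absurd (Finset.mem_univ _) h
      have hpx' : QuadraticMap.polar Q x v' = 0 := by
        rw [hQdef, polar_frameForm hB]
        refine Finset.sum_eq_zero fun j _ => ?_
        by_cases hj : j = i0
        · have h1 : j ≠ ik := by
            rw [hj]; simp [i0, ik, Fin.ext_iff]; omega
          rw [hv', Pi.single_eq_of_ne h1, map_zero]
        · rw [hx, Pi.single_eq_of_ne hj, map_zero, LinearMap.zero_apply]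
      have hgx : ((r1 * r2 : GL ι F) : Matrix ι ι F) *ᵥ x = x - B w0 z0 • v := by
        rw [Units.val_mul, ← mulVec_mulVec, hr2x, hpx', zero_smul, sub_zero, hr1x, hpx]
      have hBne : B w0 z0 ≠ 0 := by rwa [hsymm]
      have hcomp : ∀ j : Fin t, j ≠ i0 → (j : ℕ) < k →
          Ψ (((r1 * r2 : GL ι F) : Matrix ι ι F) *ᵥ x) j ≠ 0 := by
        intro j hj hjk
        rw [hgx, map_sub, Pi.sub_apply, hx, Pi.single_eq_of_ne hj, map_smul, Pi.smul_apply, hv, if_pos hjk,
          zero_sub]
        exact neg_ne_zero.2 (smul_ne_zero hBne hz0)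
      exact not_mem_of_two hΨ (j := i1) (k := i2) (by simp [i1, i2, Fin.ext_iff]) hxD
        (hcomp i1 (by simp [i0, i1, Fin.ext_iff]) (by simp [i1]; omega))
        (hcomp i2 (by simp [i0, i2, Fin.ext_iff]) (by simp [i2]; omega)) hmem.1
  · refine lt_of_le_of_ne inf_le_right fun h => ?_
    exact H905.not_sl_le_quadSimilarityGroup hι hQ (by rw [← h]; exact inf_le_left)

end Cfsg.Agent.H872
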